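import Cfsg.Agent.H63.HalfNorm.Build
import Cfsg.Agent.S0669

/-!
# Rank 3 groups of degree `2p`
-/

set_option autoImplicit false
set_option linter.unusedSectionVars false
set_option linter.style.haveILetI false

namespace Cfsg.Agent.H63.HalfNorm

open Finset ComplexConjugate Subgroup MulAction

variable {G X : Type*} [Group G] [MulAction G X] [Finite X]

/-- The suborbit of `b` at `a` and that of `a` at `b` have the same length. -/
theorem card_suborbit_comm [Finite G] [IsPretransitive G X] (a b : X) :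
    Nat.card (orbit (stabilizer G a) b) = Nat.card (orbit (stabilizer G b) a) := by
  have key : ∀ u v : X, Nat.card (orbit (stabilizer G u) v)
      * Nat.card ↥(stabilizer G u ⊓ stabilizer G v) = Nat.card (stabilizer G u) := by
    intro u v
    haveI : Fintype X := Fintype.ofFinite X
    have e : stabilizer (stabilizer G u) v = (stabilizer G v).subgroupOf (stabilizer G u) := by
      ext g; exact Iff.rfl
    have h2 : Nat.card (stabilizer (stabilizer G u) v)
        = Nat.card ↥(stabilizer G u ⊓ stabilizer G v) := by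
      rw [e, ← Subgroup.inf_subgroupOf_left]
      exact Nat.card_congr (Subgroup.subgroupOfEquivOfLe inf_le_left).toEquiv
    rw [← h2, ← Nat.card_prod]
    exact Nat.card_congr (orbitProdStabilizerEquivGroup (stabilizer G u) v)
  have hab : Nat.card (stabilizer G a) = Nat.card (stabilizer G b) := by
    obtain ⟨g, hg⟩ := exists_smul_eq G a b
    subst hg
    exact Nat.card_congr (stabilizerEquivStabilizer (G := G) (a := a) (b := g • a) (g := g) rfl).toEquiv
  have h1 := key a b
  have h2 := key b a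
  rw [inf_comm] at h2
  rw [← hab, ← h1] at h2
  exact (Nat.eq_of_mul_eq_mul_right Nat.card_pos h2).symm

/-- Moving the base point keeps the length of a suborbit. -/
theorem card_suborbit_smul (a b : X) (h : G) :
    Nat.card (orbit (stabilizer G (h • a)) (h • b)) = Nat.card (orbit (stabilizer G a) b) := by
  refine (Nat.card_congr ((MulAction.toPerm h).subtypeEquiv fun c => ?_)).symm
  constructor
  · rintro ⟨s, rfl⟩
    refine ⟨⟨h * (s : G) * h⁻¹, ?_⟩, ?_⟩
    · rw [mem_stabilizer_iff, mul_smul, mul_smul, inv_smul_smul, mem_stabilizer_iff.1 s.2]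
    · show (h * (s : G) * h⁻¹) • h • b = h • (s : G) • b
      rw [mul_smul, mul_smul, inv_smul_smul]
  · rintro ⟨s, hs⟩
    refine ⟨⟨h⁻¹ * (s : G) * h, ?_⟩, ?_⟩
    · rw [mem_stabilizer_iff, mul_smul, mul_smul, mem_stabilizer_iff.1 s.2, inv_smul_smul]
    · show (h⁻¹ * (s : G) * h) • b = c
      have hs' : (s : G) • h • b = h • c := hs
      rw [mul_smul, mul_smul, hs', inv_smul_smul]

/-- In rank 3 the points off `a` fill two suborbits. -/
theorem card_rank_three (a b c : X)
    (h3 : Nat.card (orbitRel.Quotient (stabilizer G a) X) = 3) (hb : b ≠ a) (hc : c ≠ a)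
    (hne : c ∉ orbit (stabilizer G a) b) :
    Nat.card X = 1 + Nat.card (orbit (stabilizer G a) b) + Nat.card (orbit (stabilizer G a) c) := by
  classical
  haveI : Fintype X := Fintype.ofFinite X
  set O : X → orbitRel.Quotient (stabilizer G a) X := Quotient.mk'' with hO
  have hOeq : ∀ u v : X, O u = O v ↔ u ∈ orbit (stabilizer G a) v := fun u v =>
    Quotient.eq''.trans (orbitRel_apply)
  have hab : O b ≠ O a := by
    intro e
    obtain ⟨s, hs⟩ := (hOeq _ _).1 e
    exact hb (hs.symm.trans (mem_stabilizer_iff.1 s.2))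
  have hac : O c ≠ O a := by
    intro e
    obtain ⟨s, hs⟩ := (hOeq _ _).1 e
    exact hc (hs.symm.trans (mem_stabilizer_iff.1 s.2))
  have hbc : O c ≠ O b := fun e => hne ((hOeq _ _).1 e)
  haveI : Fintype (orbitRel.Quotient (stabilizer G a) X) := Fintype.ofFinite _
  have huniv : ({O a, O b, O c} : Finset _) = univ := by
    refine Finset.eq_univ_of_card _ ?_
    rw [Finset.card_insert_of_notMem (by simp [hab.symm, hac.symm]),
      Finset.card_pair hbc.symm, ← Nat.card_eq_fintype_card, h3]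
  have hfib : ∀ u, #{v : X | O v = O u} = Nat.card (orbit (stabilizer G a) u) := by
    intro u
    rw [Nat.card_eq_fintype_card, ← Set.toFinset_card]
    exact congrArg Finset.card (Finset.ext fun v => by simp [hOeq])
  have hfa : #{v : X | O v = O a} = 1 := by
    rw [Finset.card_eq_one]
    refine ⟨a, Finset.ext fun v => ?_⟩
    simp only [Finset.mem_filter, Finset.mem_univ, true_and, Finset.mem_singleton, hOeq]
    refine ⟨fun ⟨s, hs⟩ => hs.symm.trans (mem_stabilizer_iff.1 s.2), fun h => by subst h; exact mem_orbit_self _⟩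
  rw [Nat.card_eq_fintype_card, ← Finset.card_univ,
    Finset.card_eq_sum_card_fiberwise (t := univ) (f := O) (fun _ _ => Finset.mem_univ _),
    ← huniv, Finset.sum_insert (by simp [hab.symm, hac.symm]), Finset.sum_pair hbc.symm, hfa,
    hfib, hfib, add_assoc]

/-- In even degree, all orbitals of a rank 3 group are self-paired. -/
theorem self_paired [Finite G] [IsPretransitive G X] (a₀ : X) (heven : Even (Nat.card X))
    (h3 : Nat.card (orbitRel.Quotient (stabilizer G a₀) X) = 3) (a b : X) :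
    ∃ g : G, g • a = b ∧ g • b = a := by
  rcases eq_or_ne a b with rfl | hab
  · exact ⟨1, one_smul _ _, one_smul _ _⟩
  obtain ⟨h, hh⟩ := exists_smul_eq G a a₀
  obtain ⟨h', hh'⟩ := exists_smul_eq G b a₀
  have e : Nat.card (orbit (stabilizer G a₀) (h • b))
      = Nat.card (orbit (stabilizer G a₀) (h' • a)) := by
    conv_lhs => rw [← hh]
    conv_rhs => rw [← hh']
    rw [card_suborbit_smul, card_suborbit_smul, card_suborbit_comm]
  have hmem : h' • a ∈ orbit (stabilizer G a₀) (h • b) := by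
    by_contra hne
    have h1 : h • b ≠ a₀ := fun e => hab (smul_left_cancel h (hh.trans e.symm))
    have h2 : h' • a ≠ a₀ := fun e => hab (smul_left_cancel h' (e.trans hh'.symm))
    have hsum := card_rank_three a₀ _ _ h3 h1 h2 hne
    rw [← e] at hsum
    obtain ⟨w, hw⟩ := heven
    omega
  obtain ⟨s, hs⟩ := hmem
  have hs' : (s : G) • h • b = h' • a := hs
  refine ⟨h'⁻¹ * (s : G) * h, ?_, ?_⟩
  · rw [mul_smul, mul_smul, hh, mem_stabilizer_iff.1 s.2, ← hh', inv_smul_smul]
  · rw [mul_smul, mul_smul, hs', inv_smul_smul]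

variable [Fintype G] [IsPretransitive G X]

/-- The permutation character of rank 3 has two nontrivial constituents. -/
theorem exists_pair [Nonempty X]
    (h3 : Nat.card (Quotient (orbitRel G (X × X))) = 3) :
    ∃ A B : Cfsg.IrrCharacter G, A ≠ B ∧ A ≠ H26.oneIrr G ∧ B ≠ H26.oneIrr G ∧
      ∀ g, H26.permChar (G := G) X g = 1 + A.1 g + B.1 g := by
  classical
  obtain ⟨m, hm, hπ⟩ := H26.exists_nat_coeffs (H26.isCharacter_permChar (G := G) X)
  have horb : Nat.card (Quotient (orbitRel G X)) = 1 := by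
    rw [Nat.card_eq_one_iff_unique]
    refine ⟨⟨fun u v => ?_⟩, ⟨Quotient.mk'' (Classical.arbitrary X)⟩⟩
    induction u using Quotient.inductionOn with
    | _ u =>
      induction v using Quotient.inductionOn with
      | _ v =>
        obtain ⟨g, hg⟩ := exists_smul_eq G v u
        exact Quotient.sound ⟨g, hg⟩
  have hm1 : m (H26.oneIrr G) = 1 := by
    have h := hm (H26.oneIrr G)
    rw [show (H26.oneIrr G).1 = fun _ => (1 : ℂ) from funext fun _ => rfl,
      H26.classInner_permChar_one, horb] at h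
    exact_mod_cast h.symm
  have hsq : ∑ χ, (m χ : ℤ) ^ 2 = 3 := by
    have h := H26.classInner_permChar_self (G := G) X
    rw [h3] at h
    have e : H26.permChar (G := G) X = ∑ χ, (m χ : ℤ) • (χ : G → ℂ) := by
      rw [hπ]
      funext g
      simp [Finset.sum_apply]
    rw [e, H57.inner_self_coef] at h
    exact_mod_cast h
  rw [← Finset.add_sum_erase _ _ (Finset.mem_univ (H26.oneIrr G)), hm1] at hsq
  obtain ⟨A, hA, hA0⟩ := Finset.exists_ne_zero_of_sum_ne_zero
    (show ∑ χ ∈ univ.erase (H26.oneIrr G), (m χ : ℤ) ^ 2 ≠ 0 by omega)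
  have hA2 : (m A : ℤ) ^ 2 ≤ 2 :=
    le_trans (Finset.single_le_sum (f := fun χ => (m χ : ℤ) ^ 2) (fun _ _ => sq_nonneg _) hA)
      (by omega)
  have hA1 : m A = 1 := by
    have h0 : m A ≠ 0 := fun e => hA0 (by simp [e])
    by_contra hne
    have h4 : (2 : ℤ) ^ 2 ≤ (m A : ℤ) ^ 2 := pow_le_pow_left₀ (by norm_num) (by omega) 2
    omega
  rw [← Finset.add_sum_erase _ _ hA, hA1] at hsq
  obtain ⟨B, hB, hB1, hBz⟩ := sq_sum_one _ (fun χ => (m χ : ℤ)) (by
    simp only [Nat.cast_one, one_pow] at hsq ⊢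
    omega : ∑ χ ∈ (univ.erase (H26.oneIrr G)).erase A, (m χ : ℤ) ^ 2 = 1)
  have hB1' : m B = 1 := by rcases hB1 with h | h <;> omega
  obtain ⟨hBA, hBo⟩ : B ≠ A ∧ B ≠ H26.oneIrr G := by simpa using hB
  refine ⟨A, B, hBA.symm, (Finset.mem_erase.1 hA).1, hBo, fun g => ?_⟩
  rw [hπ, Finset.sum_apply, ← Finset.add_sum_erase _ _ (Finset.mem_univ (H26.oneIrr G)),
    ← Finset.add_sum_erase _ _ hA,
    Finset.sum_eq_single_of_mem B hB (fun b hb hne => by
      have := hBz b hb hne
      simp [show m b = 0 by omega]), hm1, hA1, hB1']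
  simp [H26.oneIrr_val]
  ring

variable {p : ℕ} [Fact p.Prime]

/-- Of the two constituents exactly one is `-1` on the subgroup of order `p`. -/
theorem exists_datum (S : Setup G p) (hp : 3 < p) (hcard : Nat.card X = 2 * p)
    (hfree : ∀ j : ZMod p, j ≠ 0 → H26.permChar (G := G) X (S.e j) = 0)
    (hsym : ∀ a b : X, ∃ g : G, g • a = b ∧ g • b = a)
    (h3 : Nat.card (Quotient (orbitRel G (X × X))) = 3) :
    ∃ T : Datum G p, ∃ B : Cfsg.IrrCharacter G, T.toSetup = S ∧ B.1 1 = (p : ℂ) ∧
      ∀ g, H26.permChar (G := G) X g = 1 + T.A.1 g + B.1 g := by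
  classical
  haveI : Nonempty X := (Nat.card_pos_iff.1 (by omega)).1
  obtain ⟨A, B, hAB, hA1, hB1, hπ⟩ := exists_pair (G := G) (X := X) h3
  have hp2 : p ≠ 2 := by omega
  have hπcf := H26.isClassFunction_of_isCharacter (H26.isCharacter_permChar (G := G) X)
  have hpi1 : H26.permChar (G := G) X 1 = 2 * (p : ℂ) := by
    rw [H26.permChar, fixedBy_one_eq_univ, Nat.card_coe_set_eq, Set.ncard_univ, hcard]
    push_cast; rfl
  choose d hd using fun k => H57.gen_exists_coef (S.D_isGen k)
  have hcoef : ∀ k (χ : Cfsg.IrrCharacter G), (d k χ : ℂ) = Cfsg.classInner (S.D k) χ.1 := by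
    intro k χ
    rw [hd k]; exact (H57.inner_coef (d k) χ).symm
  have hone : ∀ k, k ≠ 0 → d k (H26.oneIrr G) = 1 := by
    intro k hk
    have := S.inner_D_const hk (H26.irr_isClassFunction (H26.oneIrr G)) (c := 1)
      (fun j _ => by simp [H26.oneIrr_val])
    rw [← hcoef] at this
    exact_mod_cast this
  have hsum : ∀ k, k ≠ 0 → d k A + d k B = -1 := by
    intro k hk
    have h0 := S.inner_D_const hk hπcf (c := 0) (fun j hj => by rw [hfree j hj]; simp)
    rw [show H26.permChar (G := G) X = (H26.oneIrr G).1 + A.1 + B.1 from funext hπ,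
      H26.classInner_add_right, H26.classInner_add_right, ← hcoef, ← hcoef, ← hcoef,
      hone k hk] at h0
    have : ((d k A + d k B : ℤ) : ℂ) = ((-1 : ℤ) : ℂ) := by
      push_cast at h0 ⊢; linear_combination h0
    exact_mod_cast this
  have hsq : ∀ k, k ≠ 0 → d k A ^ 2 + d k B ^ 2 ≤ 2 := by
    intro k hk
    have h := S.inner_D_self hp2 hk
    rw [hd k, H57.inner_self_coef] at h
    have h' : ∑ χ, d k χ ^ 2 = 3 := by exact_mod_cast h
    have h2 := Finset.sum_le_sum_of_subset_of_nonneg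
      (s := {H26.oneIrr G, A, B}) (Finset.subset_univ _)
      (fun χ _ _ => sq_nonneg (d k χ))
    rw [Finset.sum_insert (by simp [hA1.symm, hB1.symm]), Finset.sum_pair hAB, h', hone k hk] at h2
    omega
  have hcases : ∀ k, k ≠ 0 → (d k A = -1 ∧ d k B = 0) ∨ (d k A = 0 ∧ d k B = -1) := by
    intro k hk
    have h1 := hsum k hk
    have h2 := hsq k hk
    have ha : -1 ≤ d k A := by nlinarith
    have ha' : d k A ≤ 0 := by nlinarith
    omega
  obtain ⟨nA, hnA0, hnA⟩ := H57.irr_degree A.2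
  obtain ⟨nB, hnB0, hnB⟩ := H57.irr_degree B.2
  have hdeg : 1 + nA + nB = 2 * p := by
    have h := hπ 1
    rw [hpi1, hnA, hnB] at h
    have h' : ((1 + nA + nB : ℕ) : ℂ) = ((2 * p : ℕ) : ℂ) := by push_cast; linear_combination -h
    exact_mod_cast h'
  have hsame : ∀ k l, k ≠ 0 → l ≠ 0 → d k A = d l A := by
    intro k l hk hl
    by_contra hne
    have hBne : d k A - d l A = -(d k B - d l B) ∧ (d k A - d l A) ^ 2 = 1 := by
      rcases hcases k hk with ⟨a1, b1⟩ | ⟨a1, b1⟩ <;> rcases hcases l hl with ⟨a2, b2⟩ | ⟨a2, b2⟩ <;>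
        simp only [a1, a2, b1, b2] at hne ⊢ <;> simp_all
    have hn : Cfsg.classInner (S.D k - S.D l) (S.D k - S.D l)
        = ((∑ χ, (d k χ - d l χ) ^ 2 : ℤ) : ℂ) := by
      rw [← H57.inner_self_coef]
      congr 1 <;> rw [hd k, hd l, ← Finset.sum_sub_distrib] <;>
        exact Finset.sum_congr rfl fun χ _ => (sub_smul _ _ _).symm
    have hn2 : ∑ χ, (d k χ - d l χ) ^ 2 ≤ 2 := by
      rw [H26.classInner_sub_left, H26.classInner_sub_right, H26.classInner_sub_right,
        S.inner_D_self hp2 hk, S.inner_D_self hp2 hl, S.inner_D_D hp2 hk hl,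
        S.inner_D_D hp2 hl hk] at hn
      have hne' : k ≠ l := fun e => hne (e ▸ rfl)
      rw [if_neg hne', if_neg hne'.symm] at hn
      by_cases hneg : k = -l
      · rw [if_pos hneg, if_pos (by rw [hneg, neg_neg])] at hn
        have : ((∑ χ, (d k χ - d l χ) ^ 2 : ℤ) : ℂ) = ((0 : ℤ) : ℂ) := by rw [← hn]; norm_num
        have := Int.cast_injective this
        omega
      · rw [if_neg hneg, if_neg (fun e => hneg (by rw [e, neg_neg]))] at hn
        have : ((∑ χ, (d k χ - d l χ) ^ 2 : ℤ) : ℂ) = ((2 : ℤ) : ℂ) := by rw [← hn]; norm_num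
        have := Int.cast_injective this
        omega
    rw [← Finset.add_sum_erase _ _ (Finset.mem_univ A),
      ← Finset.add_sum_erase _ _ (Finset.mem_erase.2 ⟨hAB.symm, Finset.mem_univ B⟩)] at hn2
    have hB2 : (d k B - d l B) ^ 2 = 1 := by rw [← hBne.2, hBne.1, neg_sq]
    have hz := (Finset.sum_eq_zero_iff_of_nonneg
      (fun χ (_ : χ ∈ (univ.erase A).erase B) => sq_nonneg (d k χ - d l χ))).1 (le_antisymm
        (by omega) (Finset.sum_nonneg fun χ _ => sq_nonneg _))
    have hval : S.D k 1 - S.D l 1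
        = ((d k A - d l A : ℤ) : ℂ) * A.1 1 + ((d k B - d l B : ℤ) : ℂ) * B.1 1 := by
      rw [hd k, hd l, Finset.sum_apply, Finset.sum_apply, ← Finset.sum_sub_distrib,
        ← Finset.add_sum_erase _ _ (Finset.mem_univ A),
        ← Finset.add_sum_erase _ _ (Finset.mem_erase.2 ⟨hAB.symm, Finset.mem_univ B⟩),
        Finset.sum_eq_zero (s := (univ.erase A).erase B) fun χ hχ => by
          have h0 : d k χ = d l χ := sub_eq_zero.1 (by simpa using hz χ hχ)
          simp [h0]]
      simp [zsmul_eq_mul]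
      ring
    rw [S.D_one, S.D_one, sub_self, hnA, hnB] at hval
    have hz' : ((((d k A - d l A) * nA + (d k B - d l B) * nB : ℤ)) : ℂ) = ((0 : ℤ) : ℂ) := by
      push_cast at hval ⊢; linear_combination -hval
    have hzZ := Int.cast_injective hz'
    rw [hBne.1] at hzZ
    have h : (d k B - d l B) * ((nB : ℤ) - nA) = 0 := by linear_combination hzZ
    rcases mul_eq_zero.1 h with h | h
    · rw [h] at hB2; norm_num at hB2
    · omega
  -- name the two constituents
  obtain ⟨A', B', hA'1, hπ', hdA, hdB⟩ : ∃ A' B' : Cfsg.IrrCharacter G, A' ≠ H26.oneIrr G ∧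
      (∀ g, H26.permChar (G := G) X g = 1 + A'.1 g + B'.1 g) ∧
      (∀ k : ZMod p, k ≠ 0 → d k A' = -1) ∧ ∀ k : ZMod p, k ≠ 0 → d k B' = 0 := by
    rcases hcases 1 one_ne_zero with ⟨h, -⟩ | ⟨h, -⟩
    · refine ⟨A, B, hA1, hπ, fun k hk => by rw [hsame k 1 hk one_ne_zero, h], fun k hk => ?_⟩
      have := hsum k hk
      rw [hsame k 1 hk one_ne_zero, h] at this
      omega
    · refine ⟨B, A, hB1, fun g => by rw [hπ g]; ring, fun k hk => ?_,
        fun k hk => by rw [hsame k 1 hk one_ne_zero, h]⟩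
      have := hsum k hk
      rw [hsame k 1 hk one_ne_zero, h] at this
      omega
  have hvA : ∀ j : ZMod p, j ≠ 0 → A'.1 (S.e j) = ((-1 : ℤ) : ℂ) := fun j hj =>
    S.const_of_inner_D (H26.irr_isClassFunction A') (fun k hk => by rw [← hcoef, hdA k hk]) hj
  have hvB : ∀ j : ZMod p, j ≠ 0 → B'.1 (S.e j) = ((0 : ℤ) : ℂ) := fun j hj =>
    S.const_of_inner_D (H26.irr_isClassFunction B') (fun k hk => by rw [← hcoef, hdB k hk]) hj
  have hmult : ∀ (χ : Cfsg.IrrCharacter G) (c : ℤ),
      (∀ j : ZMod p, j ≠ 0 → χ.1 (S.e j) = (c : ℂ)) →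
      ∀ n : ℕ, χ.1 1 = n → ∃ m : ℕ, (n : ℤ) + ((p : ℤ) - 1) * c = p * m := by
    intro χ c hc n hn
    obtain ⟨m, hm⟩ := H26.exists_nat_classInner_irr
      (H68.isCharacter_indFun_hom (zpowers S.x) 1) χ
    refine ⟨m, ?_⟩
    rw [S.inner_indFun _ (H26.irr_isClassFunction χ),
      inv_mul_eq_iff_eq_mul₀ (Nat.cast_ne_zero.2 (Fact.out : p.Prime).ne_zero),
      ← Finset.add_sum_erase _ _ (Finset.mem_univ (0 : ZMod p)),
      Finset.sum_congr rfl (g := fun _ => (c : ℂ))
        (fun j hj => by rw [hc j (Finset.mem_erase.1 hj).1]; simp),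
      Finset.sum_const, Finset.card_erase_of_mem (Finset.mem_univ _), Finset.card_univ, ZMod.card,
      S.e_zero, hn, nsmul_eq_mul, Nat.cast_sub (Fact.out : p.Prime).one_le] at hm
    simp only [MonoidHom.one_apply, Units.val_one, one_mul, map_natCast, Nat.cast_one] at hm
    have : (((n : ℤ) + ((p : ℤ) - 1) * c : ℤ) : ℂ) = ((p * m : ℤ) : ℂ) := by
      push_cast; linear_combination hm
    exact_mod_cast this
  obtain ⟨a, ha0, ha⟩ := H57.irr_degree A'.2
  obtain ⟨b, hb0, hb⟩ := H57.irr_degree B'.2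
  have hab : 1 + a + b = 2 * p := by
    have h := hπ' 1
    rw [hpi1, ha, hb] at h
    have h' : ((1 + a + b : ℕ) : ℂ) = ((2 * p : ℕ) : ℂ) := by push_cast; linear_combination -h
    exact_mod_cast h'
  obtain ⟨mA, hmA⟩ := hmult A' (-1) hvA a ha
  obtain ⟨mB, hmB⟩ := hmult B' 0 hvB b hb
  have hm : mA + mB = 1 := by
    have h : (p : ℤ) * ((mA : ℤ) + mB) = (p : ℤ) * 1 := by
      have : ((1 + a + b : ℕ) : ℤ) = ((2 * p : ℕ) : ℤ) := by rw [hab]
      push_cast at this
      linear_combination this - hmA - hmB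
    have h' := mul_left_cancel₀ (Int.natCast_ne_zero.2 (Fact.out : p.Prime).ne_zero) h
    omega
  obtain ⟨rfl, rfl⟩ : mA = 0 ∧ mB = 1 := by
    rcases Nat.eq_zero_or_pos mB with rfl | h
    · exfalso; simp at hmB; omega
    · omega
  have hA_deg : A'.1 1 = (p : ℂ) - 1 := by
    have : a = p - 1 := by simp at hmA; omega
    rw [ha, this, Nat.cast_sub (Fact.out : p.Prime).one_le, Nat.cast_one]
  have hB_deg : B'.1 1 = (p : ℂ) := by
    have : b = p := by simp at hmB; omega
    rw [hb, this]
  have horth : H26.fsIndicator A'.1 = 1 := by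
    have h := fs_permChar (G := G) hsym
    rw [H26.classInner_permChar_self, h3] at h
    have hG : (Nat.card G : ℂ) ≠ 0 := Nat.cast_ne_zero.2 Nat.card_pos.ne'
    have e : H26.fsIndicator (H26.permChar (G := G) X)
        = 1 + H26.fsIndicator A'.1 + H26.fsIndicator B'.1 := by
      simp only [H26.fsIndicator, hπ', Finset.sum_add_distrib]
      simp [mul_add, ← Nat.card_eq_fintype_card, hG]
    rw [e] at h
    rcases (H26.fsIndicator_trichotomy A').1 with hA' | hA' | hA' <;>
      rcases (H26.fsIndicator_trichotomy B').1 with hB' | hB' | hB' <;>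
      rw [hA', hB'] at h <;> norm_num at h <;> assumption
  exact ⟨⟨S, A', hp, hA_deg, fun j hj => by rw [hvA j hj]; simp, horth⟩, B', rfl, hB_deg, hπ'⟩

end Cfsg.Agent.H63.HalfNorm
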